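import Cfsg.Agent.H133.USixTwo

/-!
# S4816 (RIM), row `U₆(2)`: the squares in the kernel of a perfect central extension have odd order (helper223)
-/

set_option autoImplicit false
set_option linter.unusedSectionVars false

namespace Cfsg.Agent.H223.RIM

open Cfsg Subgroup Cfsg.Agent.H51.Mult

universe u v

/-- the elements of odd order of a central subgroup -/
def oddPart {L : Type u} [Group L] (K : Subgroup L) (hK : K ≤ center L) : Subgroup L where
  carrier := {κ | κ ∈ K ∧ ∃ n : ℕ, Odd n ∧ κ ^ n = 1}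
  mul_mem' := by
    rintro a b ⟨ha, n, hn, han⟩ ⟨hb, m, hm, hbm⟩
    refine ⟨K.mul_mem ha hb, n * m, hn.mul hm, ?_⟩
    have hcomm : Commute a b := (mem_center_iff.1 (hK ha) b).symm
    rw [hcomm.mul_pow, pow_mul, han, one_pow, mul_comm n m, pow_mul, hbm, one_pow, one_mul]
  one_mem' := ⟨K.one_mem, 1, odd_one, one_pow 1⟩
  inv_mem' := by
    rintro a ⟨ha, n, hn, han⟩
    exact ⟨K.inv_mem ha, n, hn, by rw [inv_pow, han, inv_one]⟩

theorem odd_sq {F : Type v} [Field F] [Fintype F] (hF : Fintype.card F = 2 ^ 2) {L : Type u} [Group L] [Finite L]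
    {π : L →* PSU 6 F 2} (hp : commutator L = ⊤) (hs : Function.Surjective π) (hc : π.ker ≤ center L) {κ : L}
    (hκ : κ ∈ π.ker) : ∃ n : ℕ, Odd n ∧ (κ * κ) ^ n = 1 := by
  have h : PCE π := ⟨hs, hc, hp⟩
  have hO : oddPart π.ker hc ≤ π.ker := fun x hx => hx.1
  obtain ⟨L', _, q, ρ, hq, hqk, hρ, hP⟩ := h.quot hO
  have : Finite L' := Finite.of_surjective q hq
  have h2 : IsPGroup 2 ρ.ker := by
    rintro ⟨z, hz⟩
    obtain ⟨x, rfl⟩ := hq z
    have hx : x ∈ π.ker := by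
      rw [MonoidHom.mem_ker, ← hρ]
      exact hz
    obtain ⟨a, m, hm, ham⟩ := Nat.exists_eq_two_pow_mul_odd (orderOf_pos x).ne'
    refine ⟨a, Subtype.ext ?_⟩
    change q x ^ 2 ^ a = 1
    rw [← map_pow, ← MonoidHom.mem_ker, hqk]
    refine ⟨π.ker.pow_mem hx _, m, hm, ?_⟩
    rw [← pow_mul, ← ham, pow_orderOf_eq_one]
  have h3 := (Cfsg.Agent.H133.USixTwo.main hF hP.perf hP.surj hP.cen h2).1 (q κ) (by
    rw [MonoidHom.mem_ker, hρ]
    exact hκ)
  rw [← map_mul, ← MonoidHom.mem_ker, hqk] at h3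
  exact h3.2

end Cfsg.Agent.H223.RIM
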